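import Cfsg.Agent.Comp.SteinerUniq

/-! Counting `j`-subsets with a property by kernel enumeration (`cntSub`, `Enc.ncard_sub`, `Enc.forall_sub`), and the
rigidity bound for pointwise stabilisers in the automorphism group of a listed Steiner system (`card_aut_fix_le`). -/

set_option autoImplicit false

namespace Cfsg.Agent.Comp

open Finset MulAction
open scoped Pointwise

/-- number of masks `s + u`, `u < 2 ^ n` of weight `j`, satisfying `f`. -/
def cntSub (f : ℕ → Bool) (n : ℕ) : ℕ → ℕ → ℕ :=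
  Nat.rec (motive := fun _ => ℕ → ℕ → ℕ)
    (fun j s => Nat.rec (motive := fun _ => ℕ) (Bool.rec 0 1 (f s)) (fun _ _ => 0) j)
    (fun n ih j s => Nat.rec (motive := fun _ => ℕ) (Bool.rec 0 1 (f s))
      (fun j' _ => Bool.rec (Nat.add (ih (Nat.succ j') s) (force (Nat.add s (Nat.pow 2 n)) (ih j'))) 0
        (Nat.blt n j')) j) n

theorem popc_two_pow_add {n u : ℕ} (hu : u < 2 ^ n) : popc (n + 1) (2 ^ n + u) = popc n u + 1 := by
  rw [popc_succ, Nat.testBit_two_pow_add_eq, Nat.testBit_lt_two_pow hu,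
    popc_congr fun i hi => Nat.testBit_two_pow_add_gt hi u]; rfl

theorem popc_eq_zero {n u : ℕ} (hu : u < 2 ^ n) (h : popc n u = 0) : u = 0 := by
  rw [popc_eq, card_eq_zero, filter_eq_empty_iff] at h
  refine Nat.zero_of_testBit_eq_false fun i => ?_
  by_cases hi : i < n
  · simpa using h (mem_range.2 hi)
  · exact Nat.testBit_lt_two_pow (hu.trans_le (Nat.pow_le_pow_right (by norm_num) (not_lt.1 hi)))

theorem cntSub_zero (f : ℕ → Bool) (n s : ℕ) :
    (Bool.rec 0 1 (f s) : ℕ) = ∑ u ∈ range (2 ^ n), if popc n u = 0 ∧ f (s + u) = true then 1 else 0 := by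
  rw [sum_eq_single 0 (fun u hu h0 => if_neg fun h => h0 (popc_eq_zero (mem_range.1 hu) h.1)) (by simp)]
  have : popc n 0 = 0 := by simp [popc_eq]
  cases h : f s <;> simp [this, h]

theorem cntSub_eq (f : ℕ → Bool) (n : ℕ) : ∀ j s, cntSub f n j s =
    ∑ u ∈ range (2 ^ n), if popc n u = j ∧ f (s + u) = true then 1 else 0 := by
  induction n with
  | zero =>
    intro j s
    cases j with
    | zero => exact cntSub_zero f 0 s
    | succ j => simp [cntSub, popc]
  | succ n ih =>
    intro j s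
    cases j with
    | zero => exact cntSub_zero f _ s
    | succ j =>
      show Bool.rec (motive := fun _ => ℕ) (cntSub f n (j + 1) s + force (s + 2 ^ n) (cntSub f n j)) 0 (Nat.blt n j) = _
      cases h : Nat.blt n j
      · show cntSub f n (j + 1) s + force (s + 2 ^ n) (cntSub f n j) = _
        rw [force_eq, ih, ih, pow_succ, mul_two, sum_range_add]
        congr 1
        · refine sum_congr rfl fun u hu => ?_
          rw [popc_succ, Nat.testBit_lt_two_pow (mem_range.1 hu)]; rfl
        · refine sum_congr rfl fun u hu => ?_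
          simp only [popc_two_pow_add (mem_range.1 hu), Nat.add_assoc, Nat.add_right_cancel_iff]
      · refine (sum_eq_zero fun u _ => if_neg fun h' => ?_).symm
        have := popc_le (n + 1) u
        rw [nblt] at h; omega

variable {α : Type*} [Fintype α] {n : ℕ}

theorem Enc.ncard_sub (E : Enc α n) {p : Finset α → Prop} {f : ℕ → Bool} (j : ℕ)
    (h : ∀ s < 2 ^ n, popc n s = j → (p (E.ofMask s) ↔ f s = true)) :
    {S : Finset α | S.card = j ∧ p S}.ncard = cntSub f n j 0 := by
  rw [cntSub_eq, ← card_filter, ← Set.ncard_coe_finset]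
  refine (Set.ncard_congr (fun r _ => E.ofMask r) ?_ ?_ ?_).symm
  · intro r hr
    simp only [coe_filter, mem_range, zero_add, Set.mem_ofPred_eq] at hr
    exact ⟨by rw [E.card_ofMask, hr.2.1], (h r hr.1 hr.2.1).2 hr.2.2⟩
  · intro r r' hr hr'
    simp only [coe_filter, mem_range, zero_add, Set.mem_ofPred_eq] at hr hr'
    exact E.ofMask_inj hr.1 hr'.1
  · rintro S ⟨h1, h2⟩
    obtain ⟨s, hs, rfl⟩ := E.exists_mask S
    rw [E.card_ofMask] at h1
    exact ⟨s, by simpa [hs, h1] using (h s hs h1).1 h2, rfl⟩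

theorem Enc.forall_sub (E : Enc α n) {f : ℕ → Bool} {j : ℕ} (h : cntSub (fun s => not (f s)) n j 0 = 0)
    {S : Finset α} (hS : S.card = j) : ∃ s < 2 ^ n, S = E.ofMask s ∧ f s = true := by
  obtain ⟨s, hs, rfl⟩ := E.exists_mask S
  rw [cntSub_eq, sum_eq_zero_iff] at h
  have := h s (mem_range.2 hs)
  rw [E.card_ofMask] at hS
  exact ⟨s, hs, rfl, by simpa [hS] using this⟩

variable [DecidableEq α]

theorem card_aut_fix_le (E : Enc α n) (hn : n ≤ 24) {l : List ℕ} {t k : ℕ} (hB : IsSteinerSystem t k (sysOf E l))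
    (F : ℕ) (steps : List (ℕ × List ℕ)) {N : ℕ} (hN : N ≠ 0)
    (h : rigB n (fun u => u) (fun u F => band (memL u l) (band (Nat.blt u (Nat.pow 2 n))
      (Nat.ble t (pc24 (Nat.land u F))))) (2 ^ n - 1) steps F = N) :
    Nat.card ↥(setSystemAut (sysOf E l) ⊓ fixM E (Equiv.Perm α) F) ≤ N := by
  rw [← h] at hN ⊢
  refine card_le_rigB E (K := setSystemAut (sysOf E l)) (fun u F h g hg hF => ?_) steps F hN
  simp only [band_eq, Bool.and_eq_true, memL_iff, nblt, nble] at h
  have hu := ofMask_mem_sysOf E h.1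
  refine Steiner.eq_of_subset hB (s := E.ofMask u ∩ E.ofMask F) ?_ (smul_mem_of_aut hg hu) hu (fun a ha => ?_)
    inter_subset_left
  · rw [← E.ofMask_and, E.card_ofMask24 hn (lt_of_le_of_lt Nat.and_le_left h.2.1)]; exact h.2.2
  · rw [mem_inter] at ha
    exact mem_smul_finset.2 ⟨a, ha.1, hF a (E.mem_ofMask.1 ha.2)⟩

end Cfsg.Agent.Comp
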